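import Cfsg.Agent.Lib.Spor.LU62.Main
import Cfsg.Agent.Lib.Spor.Glue3

set_option autoImplicit false
set_option maxRecDepth 100000
set_option Elab.async false
set_option exponentiation.threshold 100000

namespace Cfsg.Agent.Spor.LU62
open Cfsg.Agent.PG Cfsg.Agent.Spor

def fx_lv : List (ℕ × List (List ℕ) × ℕ × ℕ) := [(0, [[0x025c5a504e4848524c464a40444a46405446], [0x025e585254484856444e4640444a44405e44]], 10, 891),
  (1, [[0x025c58545254524c505450485254444a4448404448504846], [0x025c585254524e52484852444c5446404444444e5e]], 9, 336),
  (2, [[0x025c5a545054504c504c54485054484444444e4440444844404456], [0x025e524c504c48524448464a40444a44404456]], 4, 10),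
  (3, [[0x02585254524c524848504a54444444445640444a444840], [0x025c5a545254504e50485054484444444e5e40444a444c]], 3, 6),
  (5, [[0x025c5450544848524e444444504a404444444052464e], [0x025e4e524a4c5244], [0x025c5a54524e5248504444444c44], [0x025c585450544e4848505644444a46404444444052464e]], 3, 32),
  (6, [[0x025852544c5054445040464a46404650]], 2, 2),
  (9, [[0x025e5a54504848444444504c40464a46404650]], 2, 2),
  (7, [[0x02585254504c504444444e4440464646404650]], 2, 2),
  (13, [[0x025c545254504c50484448444e4640464a46404650]], 2, 2)]

theorem fx_ok : lbB LU62.A 8 16 fx_lv [] = true := by decide +kernel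

theorem fx : FixTriv (K LU62.A 16) (bset (ivl 0 891)) := by
  have := lb_fixTriv LU62.hA fx_ok (by rw [KS_nil, LU62.card0]; decide +kernel) (B := bset (ivl 0 891))
    (fun q hq => mem_bset_of_bit (allL_spec (p := fun q => bit (ivl 0 891) q.1) (by decide +kernel) q hq))
  rwa [KS_nil] at this


end Cfsg.Agent.Spor.LU62
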